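import Cfsg.Agent.H218.HT.DDD4
import Cfsg.Agent.ChevalleyStructure.TwistedE6Rel

/-!
# S4933, own characteristic: `Q'' ≠ 1` in `²E₆(q)` (helper218)
-/

set_option autoImplicit false

namespace Cfsg.Agent.H218.HT

open Cfsg Cfsg.Lie Cfsg.Agent.ChevalleyStructure Cfsg.Agent.ChevalleyStructure.Elts
  Cfsg.Agent.ChevalleyStructure.UnipOrd
open Cfsg.Agent.H720.HT (DD)
open scoped commutatorElement

universe u

theorem dd_of_sub {D : ChevalleyDatum} (hD : UnipOrd.InList D) {F : Type u} [Field F] {p : ℕ} [Fact p.Prime]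
    [CharP F p] [Finite F] (S : Subgroup (GL D.Idx F)) {r₁ s₁ k₁ r₂ s₂ k₂ k₃ : ℕ} {c₁ c₂ c₃ : ℤ}
    (m₁ : xG hD r₁ 1 ∈ S) (m₂ : xG hD s₁ 1 ∈ S) (m₃ : xG hD r₂ 1 ∈ S) (m₄ : xG hD s₂ 1 ∈ S)
    (o₁ : okPair D r₁ s₁) (o₂ : okPair D r₂ s₂) (o₃ : okPair D k₂ k₁)
    (h₁ : D.commTerms r₁ s₁ = [(k₁, c₁, 1, 1)]) (h₂ : D.commTerms r₂ s₂ = [(k₂, c₂, 1, 1)])
    (h₃ : D.commTerms k₂ k₁ = [(k₃, c₃, 1, 1)]) (hk : k₃ < D.nroots) (e₁ : c₁ = 1 ∨ c₁ = -1) (e₂ : c₂ = 1 ∨ c₂ = -1)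
    (e₃ : c₃ = 1 ∨ c₃ = -1) : DD p ↥S := by
  have hpos : ∀ {r : ℕ} (_ : D.nroots / 2 ≤ r) (_ : r < D.nroots) (hm : xG hD r (1 : F) ∈ S),
      (⟨xG hD r 1, hm⟩ : ↥S) ∈ (D.posUnipotent F).subgroupOf S :=
    fun h1 h2 _ => Subgroup.mem_subgroupOf.2 (xG_mem_posUnipotent hD (pos_of hD h1 h2) 1)
  have hne : ∀ {r s : ℕ}, okPair D r s → s ≠ D.neg r := fun o =>
    UnipProd.ne_neg_of_pos hD (pos_of hD o.1 o.2.1) (pos_of hD o.2.2.1 o.2.2.2.1)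
  refine DD.of_mem _ (isPGroup_pos_subgroupOf hD S) (hpos o₁.2.2.1 o₁.2.2.2.1 m₂) (hpos o₁.1 o₁.2.1 m₁)
    (hpos o₂.2.2.1 o₂.2.2.2.1 m₄) (hpos o₂.1 o₂.2.1 m₃) ?_
  intro h
  have h4 : ⁅⁅xG hD s₁ (1 : F), xG hD r₁ (1 : F)⁆, ⁅xG hD s₂ (1 : F), xG hD r₂ (1 : F)⁆⁆ = 1 := congrArg Subtype.val h
  rw [comm_one hD o₁.2.1 o₁.2.2.2.1 o₁.2.2.2.2 (hne o₁) h₁, comm_one hD o₂.2.1 o₂.2.2.2.1 o₂.2.2.2.2 (hne o₂) h₂,
    comm_one hD o₃.2.1 o₃.2.2.2.1 o₃.2.2.2.2 (hne o₃) h₃, xG_eq_one_iff hD hk] at h4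
  have f₁ := sign_ne (F := F) e₁
  have f₂ := sign_ne (F := F) e₂
  have f₃ := sign_ne (F := F) e₃
  revert h4
  simp [f₁, f₂, f₃]

theorem x_mem_twistedE6 {K : Type u} [Field K] [Fintype K] {q : ℕ} (hq : IsPrimePow q)
    (hK : Fintype.card K = q ^ 2) {r : ℕ} (hr : [r] ∈ TwistedE6U.L) (hrho : TwistedE6Sigma.rho r = r)
    (hr72 : r < 72) : xG TwistedE6U.hE6 r (1 : K) ∈ twistedE6 K q := by
  obtain ⟨φ, hφ⟩ := TwistedE6Sigma.exists_frob hq (two_ne_zero) hK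
  have hφφ : ∀ t, φ (φ t) = t := by
    intro t
    rw [hφ, hφ, ← pow_mul, ← pow_two, ← hK]
    exact FiniteField.pow_card t
  refine TwistedE6Rel.rel_le hφ hφφ hr ⟨?_, ?_⟩
  · exact TwistedU.mem_rspan (TwistedE6U.X (K := K)) (S := {k | k ∈ [r]}) (List.mem_singleton_self r) 1
  · apply Units.ext
    rw [TwistedE6Sigma.sig_xE6 φ hr72 (t := 1) rfl, hrho, TwistedE6Sigma.eps_of_rho_eq r hr72 hrho, map_one,
      Int.cast_one, one_mul]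
    rfl

/-- **`²E₆(q)`, every `q`** -/
theorem dd_E6t (K : Type u) [Field K] {p : ℕ} [Fact p.Prime] [CharP K p] [Fintype K] {q : ℕ} (hq : IsPrimePow q)
    (hK : Fintype.card K = q ^ 2) : DD p ↥(twistedE6 K q) := by
  have hm : ∀ r ∈ [39, 46, 44, 63], xG TwistedE6U.hE6 r (1 : K) ∈ twistedE6 K q := by
    intro r hr
    have h : ∀ r ∈ [39, 46, 44, 63], [r] ∈ TwistedE6U.L ∧ TwistedE6Sigma.rho r = r ∧ r < 72 := by decide +kernel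
    obtain ⟨h1, h2, h3⟩ := h r hr
    exact x_mem_twistedE6 hq hK h1 h2 h3
  exact dd_of_sub (D := chevE6) TwistedE6U.hE6 (twistedE6 K q) (r₁ := 39) (s₁ := 46) (k₁ := 47) (c₁ := 1) (r₂ := 44)
    (s₂ := 63) (k₂ := 69) (c₂ := -1) (k₃ := 71) (c₃ := 1) (hm 39 (by decide)) (hm 46 (by decide)) (hm 44 (by decide))
    (hm 63 (by decide)) (by decide +kernel) (by decide +kernel) (by decide +kernel) (by decide +kernel)
    (by decide +kernel) (by decide +kernel) (by decide +kernel) (by decide) (by decide) (by decide)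

end Cfsg.Agent.H218.HT
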