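import Cfsg.Agent.H218.HT.DDD4
import Cfsg.Agent.ChevalleyStructure.TwF4.TwistedFix
import Cfsg.Agent.ChevalleyStructure.F4TwU

/-!
# S4933, own characteristic: `Q'' ≠ 1` in `²F₄(q)` (helper218)
-/

set_option autoImplicit false

namespace Cfsg.Agent.H218.HT

open Cfsg Cfsg.Lie
open Cfsg.Agent.ChevalleyStructure
open Cfsg.Agent.ChevalleyStructure.TwF4.Rel Cfsg.Agent.ChevalleyStructure.TwF4.Tables
open Cfsg.Agent.ChevalleyStructure.TwF4.Twisted Cfsg.Agent.ChevalleyStructure.TwF4.TwistedFix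
open Cfsg.Agent.H720.HT (DD)
open scoped commutatorElement

universe u

/-- the commutator word -/
def wF4 : List (ℕ × ℕ × ℕ) :=
  [27, 25, 28, 33, 24, 28, 25, 27, 24, 33].map (fun r => (r, 0, 0)) ++
  [33, 24, 28, 30, 24, 33, 30, 28].map (fun r => (r, 0, 0)) ++
  [33, 24, 27, 25, 28, 24, 33, 28, 25, 27].map (fun r => (r, 0, 0)) ++
  [28, 30, 33, 24, 30, 28, 24, 33].map (fun r => (r, 0, 0))

theorem wF4_check : chkWord wF4 [(38, 0, 0), (43, 0, 0)] = true := by decide +kernel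

theorem comm_F4 (K : Type u) [Field K] [CharP K 2] :
    ⁅⁅(X 27 (1 : K) * X 25 (1 : K) * X 28 (1 : K) : GL chevF4.Idx K), X 33 (1 : K) * X 24 (1 : K)⁆, ⁅(X 33 (1 : K) * X 24 (1 : K) : GL chevF4.Idx K),
      X 28 (1 : K) * X 30 (1 : K)⁆⁆ = X 38 (1 : K) * X 43 (1 : K) := by
  have h := W_eq_of_chkWord (K := K) _ _ wF4_check 1 1
  simp only [commutatorElement_def, mul_inv_rev, X_inv, mul_assoc]
  simpa [wF4, wordK, W_cons, mul_assoc] using h

/-- **`²F₄(q)`, every `q`** -/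
theorem dd_F4t (K : Type u) [Field K] [CharP K 2] [Finite K] {e : ℕ} (he : e ≠ 0) : DD 2 ↥(twistedF4 K e) := by
  have : Fact (Nat.Prime 2) := ⟨Nat.prime_two⟩
  have hC : (X 27 (1 : K) * X 25 (1 : K) * X 28 (1 : K) : GL chevF4.Idx K) = xb e 1 0 := by
    unfold xb NF
    simp [X_zero, he]
  have ha : (X 33 (1 : K) * X 24 (1 : K) : GL chevF4.Idx K) = xa e 1 := by
    unfold xa
    simp
  have hc : (X 28 (1 : K) * X 30 (1 : K) : GL chevF4.Idx K) = xb e 0 1 := by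
    unfold xb NF
    simp [X_zero, he]
  have mC : (X 27 (1 : K) * X 25 (1 : K) * X 28 (1 : K) : GL chevF4.Idx K) ∈ twistedF4 K e := hC ▸ xb_mem 1 0
  have ma : (X 33 (1 : K) * X 24 (1 : K) : GL chevF4.Idx K) ∈ twistedF4 K e := ha ▸ xa_mem 1
  have mc : (X 28 (1 : K) * X 30 (1 : K) : GL chevF4.Idx K) ∈ twistedF4 K e := hc ▸ xb_mem 0 1
  have hp : ∀ r, 24 ≤ r ∧ r < 48 → (X r (1 : K) : GL chevF4.Idx K) ∈ chevF4.posUnipotent K := fun r hr =>
    F4TwU.X_mem_pos hr 1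
  have pC : (⟨_, mC⟩ : ↥(twistedF4 K e)) ∈ (chevF4.posUnipotent K).subgroupOf (twistedF4 K e) :=
    Subgroup.mem_subgroupOf.2 (mul_mem (mul_mem (hp 27 (by norm_num)) (hp 25 (by norm_num))) (hp 28 (by norm_num)))
  have pa : (⟨_, ma⟩ : ↥(twistedF4 K e)) ∈ (chevF4.posUnipotent K).subgroupOf (twistedF4 K e) :=
    Subgroup.mem_subgroupOf.2 (mul_mem (hp 33 (by norm_num)) (hp 24 (by norm_num)))
  have pc : (⟨_, mc⟩ : ↥(twistedF4 K e)) ∈ (chevF4.posUnipotent K).subgroupOf (twistedF4 K e) :=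
    Subgroup.mem_subgroupOf.2 (mul_mem (hp 28 (by norm_num)) (hp 30 (by norm_num)))
  refine DD.of_mem _ (isPGroup_pos_subgroupOf (D := chevF4) (by simp) (twistedF4 K e)) pC pa pa pc ?_
  intro h
  have h1 : ⁅⁅(X 27 (1 : K) * X 25 (1 : K) * X 28 (1 : K) : GL chevF4.Idx K), X 33 (1 : K) * X 24 (1 : K)⁆, ⁅(X 33 (1 : K) * X 24 (1 : K) : GL chevF4.Idx K),
      X 28 (1 : K) * X 30 (1 : K)⁆⁆ = 1 := congrArg Subtype.val h
  rw [comm_F4] at h1
  have h2 : F4TwU.wrd [38, 43] (fun _ => (1 : K)) = F4TwU.wrd [38, 43] (fun _ => (0 : K)) := by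
    simp only [F4TwU.wrd_cons, F4TwU.wrd_nil, mul_one, X_zero]
    exact h1
  exact one_ne_zero (F4TwU.word_unique _ _ [38, 43] (by simp) (by simp) h2 38 (by simp))

end Cfsg.Agent.H218.HT
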